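import Cfsg.Agent.Lib.Helper65.Asch.Defs

set_option autoImplicit false

/-! # D12: the monomial subgroup of `SL_4(5)` is not maximal

The invariant (due to helper21): the set of the 240 vectors with one, two, or four non-zero
coordinates, the product of the coordinates being `±1` in the last case. -/

namespace Cfsg.Agent.Lib.Helper65.Asch

open Cfsg Cfsg.Geo Matrix
open scoped MatrixGroups

/-- the invariant set of vectors -/
def cnd {R : Type*} [CommRing R] (w : Fin 4 → R) : Prop :=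
  (∃ i, w i ≠ 0) ∧ (¬ ∃ i, w i = 0 ∧ ∀ j, j ≠ i → w j ≠ 0) ∧
    ((∀ i, w i ≠ 0) → (∏ i, w i) ^ 2 = 1)

instance (w : Fin 4 → ZMod 5) : Decidable (cnd w) := by
  unfold cnd; infer_instance

/-- the extra element -/
def A0 (R : Type*) [CommRing R] : Matrix (Fin 4) (Fin 4) R :=
  !![-3, 2, 2, 2; -2, 3, 2, 2; -2, 2, 3, 2; -2, 2, 2, 3]

theorem cnd_A0_zmod : ∀ a b c d : ZMod 5,
    cnd (A0 (ZMod 5) *ᵥ ![a, b, c, d]) ↔ cnd ![a, b, c, d] := by
  decide +kernel

theorem det_A0_zmod : (A0 (ZMod 5)).det = 1 := by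
  decide +kernel

theorem cnd_map {R S : Type*} [CommRing R] [CommRing S] (φ : R →+* S)
    (hφ : Function.Injective φ) (w : Fin 4 → R) : cnd (φ ∘ w) ↔ cnd w := by
  have h0 : ∀ x, φ x = 0 ↔ x = 0 := fun x => map_eq_zero_iff φ hφ
  have h1 : (∏ i, φ (w i)) ^ 2 = 1 ↔ (∏ i, w i) ^ 2 = 1 := by
    rw [← map_prod, ← map_pow]
    constructor
    · intro h
      apply hφ
      rw [h, map_one]
    · intro h
      rw [h, map_one]
  simp only [cnd, Function.comp_apply, h0, h1, ne_eq]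

theorem cnd_perm {R : Type*} [CommRing R] (σ : Equiv.Perm (Fin 4)) (w : Fin 4 → R) :
    cnd (w ∘ σ) ↔ cnd w := by
  unfold cnd
  simp only [Function.comp_apply]
  have e1 : (∃ i, w (σ i) ≠ 0) ↔ ∃ i, w i ≠ 0 := σ.exists_congr_left.trans (by simp)
  have e2 : (∃ i, w (σ i) = 0 ∧ ∀ j, j ≠ i → w (σ j) ≠ 0) ↔
      ∃ i, w i = 0 ∧ ∀ j, j ≠ i → w j ≠ 0 := by
    constructor
    · rintro ⟨i, hi, h⟩
      refine ⟨σ i, hi, fun j hj => ?_⟩
      have := h (σ.symm j) (fun hh => hj (by rw [← hh]; simp))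
      simpa using this
    · rintro ⟨i, hi, h⟩
      refine ⟨σ.symm i, by simpa using hi, fun j hj => ?_⟩
      exact h (σ j) (fun hh => hj (by rw [← hh]; simp))
  have e3 : (∀ i, w (σ i) ≠ 0) ↔ ∀ i, w i ≠ 0 := σ.forall_congr_left.trans (by simp)
  have e4 : ∏ i, w (σ i) = ∏ i, w i := Equiv.prod_comp σ w
  rw [e1, e2, e3, e4]

theorem cnd_scale {R : Type*} [CommRing R] [IsDomain R] (d w : Fin 4 → R) (hd : ∀ i, d i ≠ 0)
    (hp : (∏ i, d i) ^ 2 = 1) : cnd (fun i => d i * w i) ↔ cnd w := by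
  unfold cnd
  have h0 : ∀ i, d i * w i = 0 ↔ w i = 0 := fun i => by simp [hd i]
  simp only [ne_eq, h0, Finset.prod_mul_distrib, mul_pow, hp, one_mul]

variable {F : Type*} [Field F]

theorem mono_mulVec (σ : Equiv.Perm (Fin 4)) (d w : Fin 4 → F) :
    mono σ d *ᵥ w = (fun i => d i * w i) ∘ σ.symm := by
  ext x
  simp only [mulVec, dotProduct, mono, Function.comp_apply]
  rw [Finset.sum_eq_single (σ.symm x)]
  · simp
  · intro y _ hy
    rw [if_neg, zero_mul]
    intro h
    apply hy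
    rw [h]; simp
  · simp

theorem mono_eq (σ : Equiv.Perm (Fin 4)) (d : Fin 4 → F) :
    mono σ d = (σ⁻¹).permMatrix F * Matrix.diagonal d := by
  ext x y
  rw [Matrix.mul_diagonal]
  simp only [mono, Equiv.Perm.permMatrix, Equiv.toPEquiv_apply, PEquiv.toMatrix_apply,
    Option.mem_def, Option.some.injEq]
  by_cases h : x = σ y
  · subst h; simp
  · rw [if_neg h, if_neg, zero_mul]
    intro h'
    apply h
    rw [← h']; simp

theorem det_mono (σ : Equiv.Perm (Fin 4)) (d : Fin 4 → F) :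
    (mono σ d).det = (Equiv.Perm.sign σ⁻¹ : ℤ) * ∏ i, d i := by
  rw [mono_eq, Matrix.det_mul, Matrix.det_permutation, Matrix.det_diagonal]

theorem cnd_mono (σ : Equiv.Perm (Fin 4)) (d : Fin 4 → F) (hdet : (mono σ d).det = 1)
    (w : Fin 4 → F) : cnd (mono σ d *ᵥ w) ↔ cnd w := by
  rw [det_mono] at hdet
  have hd : ∀ i, d i ≠ 0 := by
    intro i hi
    have : ∏ i, d i = 0 := Finset.prod_eq_zero (Finset.mem_univ i) hi
    rw [this, mul_zero] at hdet
    exact zero_ne_one hdet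
  have hp : (∏ i, d i) ^ 2 = 1 := by
    rcases Int.units_eq_one_or (Equiv.Perm.sign σ⁻¹) with h | h
    · rw [h] at hdet
      have : ∏ i, d i = 1 := by simpa using hdet
      rw [this, one_pow]
    · rw [h] at hdet
      have : ∏ i, d i = -1 := by
        have h' : -(∏ i, d i) = 1 := by simpa using hdet
        rw [← h', neg_neg]
      rw [this]; ring
  rw [mono_mulVec, cnd_perm, cnd_scale d w hd hp]

/-- the stabiliser of the invariant set -/
def M0 (F : Type*) [Field F] : Subgroup (GL (Fin 4) F) where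
  carrier := {g | ∀ w, cnd ((g : Matrix (Fin 4) (Fin 4) F) *ᵥ w) ↔ cnd w}
  mul_mem' {a b} ha hb := by
    intro w
    rw [Units.val_mul, ← Matrix.mulVec_mulVec, ha, hb]
  one_mem' := by intro w; simp
  inv_mem' {a} ha := by
    intro w
    rw [← ha, Matrix.mulVec_mulVec, ← Units.val_mul, mul_inv_cancel, Units.val_one,
      Matrix.one_mulVec]

theorem A0_map {R S : Type*} [CommRing R] [CommRing S] (φ : R →+* S) :
    (A0 R).map φ = A0 S := by
  ext i j
  fin_cases i <;> fin_cases j <;> simp [A0, map_ofNat]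

theorem det_A0 [Fintype F] (hq : Fintype.card F = 5) : (A0 F).det = 1 := by
  let φ : ZMod 5 →+* F := (ZMod.ringEquivOfPrime F (by norm_num) hq : ZMod 5 ≃+* F)
  have h := congrArg φ det_A0_zmod
  rw [RingHom.map_det, map_one] at h
  rw [← h, ← A0_map φ]
  rfl

theorem cnd_A0 [Fintype F] (hq : Fintype.card F = 5) (w : Fin 4 → F) :
    cnd (A0 F *ᵥ w) ↔ cnd w := by
  let e : ZMod 5 ≃+* F := ZMod.ringEquivOfPrime F (by norm_num) hq
  let φ : ZMod 5 →+* F := e
  have hφ : Function.Injective φ := e.injective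
  obtain ⟨w₀, rfl⟩ : ∃ w₀ : Fin 4 → ZMod 5, φ ∘ w₀ = w :=
    ⟨fun i => e.symm (w i), by ext i; simp [φ]⟩
  have h1 : A0 F *ᵥ (φ ∘ w₀) = φ ∘ (A0 (ZMod 5) *ᵥ w₀) := by
    ext i
    rw [Function.comp_apply, RingHom.map_mulVec, A0_map]
  rw [h1, cnd_map φ hφ, cnd_map φ hφ]
  have h2 : w₀ = ![w₀ 0, w₀ 1, w₀ 2, w₀ 3] := by
    ext i; fin_cases i <;> rfl
  rw [h2]
  exact cnd_A0_zmod _ _ _ _

theorem A0_ne_mono [Fintype F] (hq : Fintype.card F = 5) (σ : Equiv.Perm (Fin 4)) (d : Fin 4 → F) :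
    A0 F ≠ mono σ d := by
  intro h
  have hch : CharP F 5 := by
    have : Fact (Nat.Prime 5) := ⟨by norm_num⟩
    exact charP_of_card_eq_prime hq
  have h2 : (2 : F) ≠ 0 := by
    intro h0
    have : ((2 : ℕ) : F) = 0 := by exact_mod_cast h0
    rw [CharP.cast_eq_zero_iff F 5] at this
    omega
  have e1 : (2 : F) = if (0 : Fin 4) = σ 1 then d 1 else 0 := by
    have := congrFun (congrFun h 0) 1
    simpa [A0, mono] using this
  have e2 : (2 : F) = if (2 : Fin 4) = σ 1 then d 1 else 0 := by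
    have := congrFun (congrFun h 2) 1
    simpa [A0, mono] using this
  by_cases h01 : (0 : Fin 4) = σ 1
  · rw [if_neg (by rw [← h01]; decide)] at e2
    exact h2 e2
  · rw [if_neg h01] at e1
    exact h2 e1

theorem not_cnd_transvection :
    ¬ ∀ w : Fin 4 → F, cnd (Matrix.transvection (1 : Fin 4) (0 : Fin 4) (1 : F) *ᵥ w) ↔ cnd w := by
  intro h
  have h1 : cnd (![1, 0, 1, 0] : Fin 4 → F) := by
    refine ⟨⟨0, by simp⟩, ?_, ?_⟩
    · rintro ⟨i, hi, hj⟩
      fin_cases i
      · simp at hi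
      · exact hj 3 (by decide) (by simp)
      · simp at hi
      · exact hj 1 (by decide) (by simp)
    · intro h'
      exact absurd rfl (h' 1)
  have h2 := (h _).mpr h1
  have h3 : Matrix.transvection (1 : Fin 4) (0 : Fin 4) (1 : F) *ᵥ ![1, 0, 1, 0] = ![1, 1, 1, 0] := by
    ext i
    fin_cases i <;> simp [Matrix.transvection, Matrix.add_mulVec, Matrix.single, Matrix.mulVec,
      dotProduct, Fin.sum_univ_four]
  rw [h3] at h2
  apply h2.2.1
  refine ⟨3, by simp, ?_⟩
  intro j hj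
  fin_cases j
  · simp
  · simp
  · simp
  · exact absurd rfl hj

/-- a frame for a decomposition into lines -/
theorem exists_frame4' (D : Fin 4 → Submodule F (Fin 4 → F)) (hD : IsMDecomposition 1 D) :
    ∃ B : GL (Fin 4) F, ∀ g ∈ decompositionStabilizer D,
      ∃ (σ : Equiv.Perm (Fin 4)) (d : Fin 4 → F),
        ((B⁻¹ * g * B : GL (Fin 4) F) : Matrix (Fin 4) (Fin 4) F) = mono σ d := by
  have hv : ∀ i, ∃ v : Fin 4 → F, v ≠ 0 ∧ v ∈ D i ∧ ∀ w ∈ D i, ∃ c : F, w = c • v := by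
    intro i
    obtain ⟨v, hv0, hv⟩ := finrank_eq_one_iff'.mp (hD.finrank_eq i)
    refine ⟨v, fun h => hv0 (Subtype.ext h), v.2, fun w hw => ?_⟩
    obtain ⟨c, hc⟩ := hv ⟨w, hw⟩
    exact ⟨c, by rw [← Submodule.coe_smul, hc]⟩
  choose v hv0 hvD hvs using hv
  have hli : LinearIndependent F v := hD.indep.linearIndependent D hvD hv0
  let B₀ : Matrix (Fin 4) (Fin 4) F := Matrix.of fun x y => v y x
  have hcol : B₀.col = v := by
    ext y x; rfl
  have hu : IsUnit B₀ := by
    rw [← Matrix.linearIndependent_cols_iff_isUnit, hcol]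
    exact hli
  obtain ⟨B, hB⟩ := hu
  refine ⟨B, ?_⟩
  rintro g ⟨σ, hσ⟩
  have hg : ∀ i, ∃ c : F, (g : Matrix (Fin 4) (Fin 4) F) *ᵥ v i = c • v (σ i) := by
    intro i
    apply hvs
    rw [← hσ i]
    exact ⟨v i, hvD i, by simp⟩
  choose d hd using hg
  refine ⟨σ, d, ?_⟩
  have key : (g : Matrix (Fin 4) (Fin 4) F) * B₀ = B₀ * mono σ d := by
    ext x y
    have h1 : ((g : Matrix (Fin 4) (Fin 4) F) * B₀) x y =
        ((g : Matrix (Fin 4) (Fin 4) F) *ᵥ v y) x := by
      simp [Matrix.mul_apply, Matrix.mulVec, dotProduct, B₀]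
    rw [h1, hd y, Matrix.mul_apply, Finset.sum_eq_single (σ y)]
    · simp [mono, B₀, mul_comm]
    · intro k _ hk
      simp [mono, hk]
    · simp
  rw [Units.val_mul, Units.val_mul, hB, mul_assoc, key, ← mul_assoc, ← hB, ← Units.val_mul,
    inv_mul_cancel, Units.val_one, one_mul]

theorem monomial_five_not_max [Fintype F] (hq : Fintype.card F = 5)
    (D : Fin 4 → Submodule F (Fin 4 → F)) (hD : IsMDecomposition 1 D) :
    ¬ IsMaximalIn (specialLinear (Fin 4) F)
      (decompositionStabilizer D ⊓ specialLinear (Fin 4) F) := by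
  rintro ⟨-, hmax⟩
  obtain ⟨B, hB⟩ := exists_frame4' D hD
  have hSLn : (specialLinear (Fin 4) F).Normal := by
    unfold specialLinear; infer_instance
  have hdet : ∀ g : GL (Fin 4) F, g ∈ specialLinear (Fin 4) F ↔
      (g : Matrix (Fin 4) (Fin 4) F).det = 1 := by
    intro g
    unfold specialLinear
    rw [MonoidHom.mem_ker, Units.ext_iff]
    rfl
  let M : Subgroup (GL (Fin 4) F) :=
    (M0 F).comap (MulAut.conj B⁻¹).toMonoidHom ⊓ specialLinear (Fin 4) F
  have hmem : ∀ g, g ∈ M ↔ (B⁻¹ * g * B ∈ M0 F ∧ g ∈ specialLinear (Fin 4) F) := by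
    intro g
    simp [M, Subgroup.mem_inf, Subgroup.mem_comap, MulAut.conj_apply]
  have hconj : ∀ g, g ∈ specialLinear (Fin 4) F → B⁻¹ * g * B ∈ specialLinear (Fin 4) F := by
    intro g hg
    have := hSLn.conj_mem g hg B⁻¹
    simpa using this
  have hconj' : ∀ g, g ∈ specialLinear (Fin 4) F → B * g * B⁻¹ ∈ specialLinear (Fin 4) F :=
    fun g hg => hSLn.conj_mem g hg B
  have hle : decompositionStabilizer D ⊓ specialLinear (Fin 4) F ≤ M := by
    intro g hg
    obtain ⟨hg1, hg2⟩ := Subgroup.mem_inf.mp hg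
    rw [hmem]
    refine ⟨?_, hg2⟩
    obtain ⟨σ, d, hσ⟩ := hB g hg1
    intro w
    have hd1 : (mono σ d).det = 1 := by
      rw [← hσ]
      exact (hdet _).mp (hconj g hg2)
    rw [hσ]
    exact cnd_mono σ d hd1 w
  rcases hmax M hle inf_le_right with hM | hM
  · -- the extra element
    let a : GL (Fin 4) F := Matrix.GeneralLinearGroup.mkOfDetNeZero (A0 F)
      (by rw [det_A0 hq]; exact one_ne_zero)
    have ha : (a : Matrix (Fin 4) (Fin 4) F) = A0 F := rfl
    have haSL : a ∈ specialLinear (Fin 4) F := by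
      rw [hdet, ha, det_A0 hq]
    have haM : B * a * B⁻¹ ∈ M := by
      rw [hmem]
      refine ⟨?_, hconj' a haSL⟩
      have : B⁻¹ * (B * a * B⁻¹) * B = a := by group
      rw [this]
      intro w
      rw [ha]
      exact cnd_A0 hq w
    rw [hM] at haM
    obtain ⟨σ, d, hσ⟩ := hB _ (Subgroup.mem_inf.mp haM).1
    have : B⁻¹ * (B * a * B⁻¹) * B = a := by group
    rw [this, ha] at hσ
    exact A0_ne_mono hq σ d hσ
  · -- a transvection
    let τ : GL (Fin 4) F := Matrix.GeneralLinearGroup.mkOfDetNeZero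
      (Matrix.transvection (1 : Fin 4) (0 : Fin 4) (1 : F))
      (by rw [Matrix.det_transvection_of_ne _ _ (by decide)]; exact one_ne_zero)
    have hτ : (τ : Matrix (Fin 4) (Fin 4) F) = Matrix.transvection (1 : Fin 4) (0 : Fin 4) (1 : F) :=
      rfl
    have hτSL : τ ∈ specialLinear (Fin 4) F := by
      rw [hdet, hτ, Matrix.det_transvection_of_ne _ _ (by decide)]
    have hτM : B * τ * B⁻¹ ∈ M := by
      rw [hM]; exact hconj' τ hτSL
    rw [hmem] at hτM
    have : B⁻¹ * (B * τ * B⁻¹) * B = τ := by group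
    rw [this] at hτM
    apply not_cnd_transvection (F := F)
    intro w
    have := hτM.1 w
    rwa [hτ] at this

end Cfsg.Agent.Lib.Helper65.Asch
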