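import Cfsg.Agent.Lib.Helper13.Asch.Defs3

set_option autoImplicit false

/-! # D9: the arithmetic contained in `IsLinearSymplecticTypeData` -/

namespace Cfsg.Agent.Lib.Helper65.Asch

open Cfsg Cfsg.Geo Matrix
open scoped MatrixGroups

variable {ι : Type} [Fintype ι] [DecidableEq ι] {F : Type*} [Field F]

theorem sympData_arith [Fintype F] {r : ℕ} (R : Subgroup (GL ι F)) (hι : 3 ≤ Fintype.card ι)
    (hR : IsLinearSymplecticTypeData r R) :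
    ∃ p e : ℕ, p.Prime ∧ CharP F p ∧ Fintype.card F = p ^ e ∧ r ≠ p ∧
      ((Odd r ∧ Odd e ∧ r ∣ p ^ e - 1 ∧ ∀ d, 0 < d → d < e → ¬ r ∣ p ^ d - 1) ∨
       (r = 2 ∧ e = 1 ∧ p % 4 = 1)) := by
  obtain ⟨p, e, hne, ⟨hp, hch, hc, hdvd, hmin⟩, hcase⟩ := hR.field
  refine ⟨p, e, hp, hch, hc, hne, ?_⟩
  rcases hcase with ⟨hr, he, hz, -⟩ | ⟨hr, he, hz, -, -⟩ | ⟨-, -, h2, -⟩
  · rw [hz] at hdvd hmin
    exact Or.inl ⟨hr, he, hdvd, hmin⟩
  · rw [hz, he, pow_one] at hdvd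
    have := hp.one_lt
    exact Or.inr ⟨hr, he, by omega⟩
  · omega

end Cfsg.Agent.Lib.Helper65.Asch
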