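import Cfsg.Agent.Lib.Helper65.Asch.Defs
import Cfsg.Agent.Lib.Helper11.Asch.X1
import Cfsg.Agent.Lib.Helper11.Asch.X3

set_option autoImplicit false

/-! # D11: for `q = 4` the normaliser of a cubic field in `SL_3(4)` lies in a subfield group -/

namespace Cfsg.Agent.Lib.Helper65.Asch

open Cfsg Cfsg.Geo Matrix
open scoped MatrixGroups

variable {F : Type*} [Field F]

theorem charP_two_of_card_four [Fintype F] (hq : Fintype.card F = 4) : CharP F 2 := by
  obtain ⟨p, hp⟩ := CharP.exists F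
  obtain ⟨n, hpp, hc⟩ := FiniteField.card F p
  rw [hq] at hc
  have h2 : p ∣ 2 ^ 2 := by
    have : (2 : ℕ) ^ 2 = p ^ (n : ℕ) := by rw [← hc]; norm_num
    rw [this]; exact dvd_pow_self p n.pos.ne'
  have : p = 2 := (Nat.prime_dvd_prime_iff_eq hpp Nat.prime_two).mp (hpp.dvd_of_dvd_pow h2)
  subst this
  exact hp

theorem cubic_four [Fintype F] (hq : Fintype.card F = 4) (K : Subalgebra F (Matrix (Fin 3) (Fin 3) F))
    (hK : IsFieldSubalgebra 3 K) :
    ∃ (F₀ : Subfield F) (P : GL (Fin 3) F), Fintype.card F = Nat.card F₀ ^ 2 ∧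
      subalgebraNormalizer K ⊓ specialLinear (Fin 3) F ≤ subfieldSubgroup F₀ P := by
  obtain ⟨P, hP⟩ := Cfsg.Agent.Lib.Helper11.Asch.exists_frame3 hq K hK
  haveI := charP_two_of_card_four hq
  haveI : Fact (Nat.Prime 2) := ⟨Nat.prime_two⟩
  refine ⟨⊥, P, by rw [hq, Subfield.card_bot F 2]; norm_num, ?_⟩
  intro g hg
  obtain ⟨hg1, hg2⟩ := Subgroup.mem_inf.mp hg
  have hSLn : (specialLinear (Fin 3) F).Normal := by
    unfold specialLinear; infer_instance
  have hg3 : P⁻¹ * g * P ∈ specialLinear (Fin 3) F := by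
    have := hSLn.conj_mem g hg2 P⁻¹
    simpa using this
  have h1 : P⁻¹ * g * P ∈ S3 F :=
    Cfsg.Agent.Lib.Helper11.Asch.mem_S3_of_conj hq (P⁻¹ * g * P) hg3 (hP g hg1)
  refine ⟨P⁻¹ * g * P, h1, ?_⟩
  simp only [MulEquiv.coe_toMonoidHom, MulAut.conj_apply]
  group

end Cfsg.Agent.Lib.Helper65.Asch
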