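import Cfsg.Agent.Lib.Helper13.Asch.Defs3

set_option autoImplicit false

/-! # Vocabulary for the two special lemmas D11 (cubic field normaliser, q = 4) and
D12 (monomial group of degree 4, q = 5) -/

namespace Cfsg.Agent.Lib.Helper65.Asch

open Cfsg Cfsg.Geo Matrix
open scoped MatrixGroups

/-- the companion matrix of `X ^ 3 + X + 1` -/
def C3 (F : Type*) [Field F] : Matrix (Fin 3) (Fin 3) F := !![0, 0, 1; 1, 0, 1; 0, 1, 0]

/-- the matrices with entries in the prime field, times the scalars -/
def S3 (F : Type*) [Field F] : Subgroup (GL (Fin 3) F) :=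
  (Matrix.GeneralLinearGroup.map ((⊥ : Subfield F).subtype : (⊥ : Subfield F) →+* F)).range ⊔
    scalars (Fin 3) F

/-- the sign `(-1) ^ (a · b)`, `Fin 4` seen as the plane over the field with two elements -/
def sg (F : Type*) [Field F] (a b : Fin 4) : F := if a &&& b = 1 ∨ a &&& b = 2 then -1 else 1

/-- the Weyl matrices `X ^ a Z ^ b` -/
def Wy (F : Type*) [Field F] (a b : Fin 4) : Matrix (Fin 4) (Fin 4) F :=
  fun x y => if x = y ^^^ a then sg F b y else 0

/-- `g` permutes the Weyl matrices up to scalars -/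
def PW {F : Type*} [Field F] (g : Matrix (Fin 4) (Fin 4) F) : Prop :=
  ∀ a b : Fin 4, ∃ (a' b' : Fin 4) (c : F), g * Wy F a b = c • (Wy F a' b' * g)

/-- monomial matrices -/
def mono {F : Type*} [Field F] (σ : Equiv.Perm (Fin 4)) (d : Fin 4 → F) :
    Matrix (Fin 4) (Fin 4) F := fun x y => if x = σ y then d y else 0

/-- the Hadamard matrix -/
def Hd (F : Type*) [Field F] : Matrix (Fin 4) (Fin 4) F := fun x y => sg F x y

end Cfsg.Agent.Lib.Helper65.Asch
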