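import Cfsg.Agent.Lib.Helper13.Asch.Defs3

set_option autoImplicit false

/-! # Small arithmetic tools for the rows on maximal subgroups of `SL_n(q)` -/

namespace Cfsg.Agent.Lib.Helper65.Asch

open Cfsg Cfsg.Geo Matrix
open scoped MatrixGroups

variable {F : Type*} [Field F]

theorem subfield_ne_top [Fintype F] {F₀ : Subfield F} {r : ℕ} (hr : r.Prime)
    (hc : Fintype.card F = Nat.card F₀ ^ r) : F₀ ≠ ⊤ := by
  rintro rfl
  have h1 : Nat.card (⊤ : Subfield F) = Fintype.card F := by
    rw [← Nat.card_eq_fintype_card]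
    exact Nat.card_congr (Subfield.topEquiv (K := F)).toEquiv
  rw [h1] at hc
  have h2 : 1 < Fintype.card F := Fintype.one_lt_card
  have h3 : Fintype.card F ^ 1 < Fintype.card F ^ r := Nat.pow_lt_pow_right h2 hr.one_lt
  rw [pow_one] at h3
  omega

theorem card_ne_six [Fintype F] : Fintype.card F ≠ 6 := by
  intro h
  have hpp : IsPrimePow (Fintype.card F) := Fintype.isPrimePow_card_of_field
  rw [h, isPrimePow_iff_unique_prime_dvd] at hpp
  obtain ⟨p, -, hu⟩ := hpp
  have h2 := hu 2 ⟨Nat.prime_two, by norm_num⟩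
  have h3 := hu 3 ⟨Nat.prime_three, by norm_num⟩
  omega

theorem le_sl_of_maximal {ι : Type} [Fintype ι] [DecidableEq ι] {H : Subgroup (GL ι F)}
    (hH : IsMaximalIn (specialLinear ι F) H) : H ≤ specialLinear ι F := hH.1.le

end Cfsg.Agent.Lib.Helper65.Asch
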